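import Cfsg.Agent.H649.RelCover
import Cfsg.Agent.H649.AbelLocal

/-!
# Nilpotent blocks and normal subgroups of `p`-power index (S4692)
-/

set_option autoImplicit false
set_option linter.unusedSectionVars false

open Cfsg

namespace Cfsg.Agent.H649

open Cfsg.Agent.Blocks.Local
open Cfsg.Agent.H644 (idem lam emb res br IsCls IsInv coeff_emb_of_mem coeff_emb_of_notMem coeff_idem
  ext_coeff emb_injective isCls_idem isInv_emb isUnion_of_isPBlock lam_eq_of_mem coeff_res
  coeff_br cj cj_of_isCls coeff_cj)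
open Cfsg.Agent.Blocks.Basic (isPBlock_nonempty isPBlock_blockOf isPBlock_eq_of_mem)

universe u

variable {p : ℕ} [Fact p.Prime] {M : Ideal AlgInt} {G : Type u} [Group G]

/-- `C_N(R') ≃* C_G(R') ∩ N`. -/
def jIso {N : Subgroup G} (R' : Subgroup N) :
    Subgroup.centralizer (R' : Set N) ≃*
      (Subgroup.centralizer ((R'.map N.subtype : Subgroup G) : Set G) ⊓ N : Subgroup G) where
  toFun c := ⟨((c : N) : G), (mem_centralizer_map_subtype _).2 c.2, (c : N).2⟩
  invFun k := ⟨⟨(k : G), k.2.2⟩, (mem_centralizer_map_subtype ⟨(k : G), k.2.2⟩).1 k.2.1⟩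
  left_inv _ := rfl
  right_inv _ := rfl
  map_mul' _ _ := rfl

theorem jIso_coe {N : Subgroup G} (R' : Subgroup N) (c : Subgroup.centralizer (R' : Set N)) :
    ((jIso R' c : (Subgroup.centralizer ((R'.map N.subtype : Subgroup G) : Set G) ⊓ N :
      Subgroup G)) : G) = ((c : N) : G) := rfl

theorem normal_inf_subgroupOf (N C : Subgroup G) [N.Normal] : ((C ⊓ N).subgroupOf C).Normal := by
  refine ⟨fun x hx t => ?_⟩
  rw [Subgroup.mem_subgroupOf] at hx ⊢
  exact ⟨(t * x * t⁻¹).2, ‹N.Normal›.conj_mem _ hx.2 t⟩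

theorem index_inf_subgroupOf [Finite G] (N C : Subgroup G) [N.Normal]
    (hN : ∃ k : ℕ, N.index = p ^ k) :
    ∃ k : ℕ, ((C ⊓ N).subgroupOf C).index = p ^ k := by
  obtain ⟨k, hk⟩ := hN
  have h1 : ((C ⊓ N).subgroupOf C).index ∣ p ^ k := by
    rw [← hk]
    change (C ⊓ N).relIndex C ∣ _
    rw [Subgroup.inf_relIndex_left]
    exact Subgroup.relIndex_dvd_index_of_normal N C
  obtain ⟨i, -, hi⟩ := (Nat.dvd_prime_pow Fact.out).1 h1
  exact ⟨i, hi⟩

/-- Elements of order prime to `p` lie in the normal subgroups of `p`-power index. -/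
theorem mem_of_isPRegular (N : Subgroup G) [N.Normal] (hN : ∃ k : ℕ, N.index = p ^ k)
    {x : G} (hx : IsPRegular p x) : x ∈ N := by
  obtain ⟨k, hk⟩ := hN
  have h1 : (QuotientGroup.mk x : G ⧸ N) ^ p ^ k = 1 := by
    rw [← hk, Subgroup.index_eq_card]
    exact pow_card_eq_one'
  have h2 : orderOf (QuotientGroup.mk x : G ⧸ N) ∣ orderOf x :=
    orderOf_map_dvd (QuotientGroup.mk' N) x
  have h3 : (orderOf x).Coprime (p ^ k) :=
    Nat.Coprime.pow_right k ((Nat.Prime.coprime_iff_not_dvd Fact.out).2 hx).symm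
  have h4 : orderOf (QuotientGroup.mk x : G ⧸ N) = 1 :=
    Nat.eq_one_of_dvd_coprimes h3 h2 (orderOf_dvd_of_pow_eq_one h1)
  rw [orderOf_eq_one_iff, QuotientGroup.eq_one_iff] at h4
  exact h4

section Pairs

variable [Finite G] {N : Subgroup G} [N.Normal] {c : Set (IrrCharacter N)}
  {B : Set (IrrCharacter G)}

/-- Brauer pairs of `B` and of `c`, when the idempotents of `B` and `c` agree. -/
theorem isBrauerPairOf_iff_of_coversIn [M.IsPrime] (hM : IsPModular p M) (hc : IsPBlock M c)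
    (hB : IsPBlock M B) (hBc : ∀ g : G, blockCoeff B g = subgroupBlockCoeff N c g)
    {R' : Subgroup N} (hR : IsPGroup p R')
    {f : Set (IrrCharacter (Subgroup.centralizer (R' : Set N)))} (hf : IsPBlock M f)
    {F : Set (IrrCharacter (Subgroup.centralizer ((R'.map N.subtype : Subgroup G) : Set G)))}
    (hF : IsPBlock M F) (hcov : CoversIn M F (blkMap (jIso R') f)) :
    IsBrauerPairOf p M B (R'.map N.subtype) F ↔ IsBrauerPairOf p M c R' f := by
  have hnor := normal_inf_subgroupOf N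
    (Subgroup.centralizer ((R'.map N.subtype : Subgroup G) : Set G))
  have hcls : IsCls (br (R'.map N.subtype) (idem M B)) :=
    Cfsg.Agent.H644.isCls_br_of_isCls (isCls_idem B)
  have key : ∀ χ ∈ F, ∀ ξ ∈ f, lam M (χ : _ → ℂ) (br (R'.map N.subtype) (idem M B)) =
      lam M (ξ : _ → ℂ) (br R' (idem M c)) := by
    intro χ hχ ξ hξ
    have h1 := hcov.lam_eq hM inf_le_left hnor hF (isPBlock_blkMap hf) hχ
      (irrMap_mem_blkMap.2 hξ) hcls (by
        intro g hg
        rw [coeff_br, coeff_idem, hBc, subgroupBlockCoeff_of_notMem _ _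
          (fun h => hg ⟨g.2, h⟩), redC_zero])
    rw [h1]
    exact Cfsg.Agent.H644.lam_irrMap (M := M) (jIso R') ξ
      (Cfsg.Agent.H644.isCls_br_of_isCls (isCls_idem c)) (fun g => by
        rw [coeff_res, coeff_emb_of_mem _ (jIso R' g).2.1, coeff_br, coeff_idem, coeff_br,
          coeff_idem]
        change redC M (blockCoeff B ((g : N) : G)) = _
        rw [hBc, subgroupBlockCoeff_coe])
  rw [Cfsg.Agent.H644.isBrauerPairOf_iff hM, Cfsg.Agent.H644.isBrauerPairOf_iff hM]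
  obtain ⟨χ₀, hχ₀⟩ := isPBlock_nonempty hF
  obtain ⟨ξ₀, hξ₀⟩ := isPBlock_nonempty hf
  constructor
  · rintro ⟨-, -, h⟩
    exact ⟨⟨hR, hf⟩, hc, fun ξ hξ => by rw [← key χ₀ hχ₀ ξ hξ, h χ₀ hχ₀]⟩
  · rintro ⟨-, -, h⟩
    exact ⟨⟨hR.map _, hF⟩, hB, fun χ hχ => by rw [key χ hχ ξ₀ hξ₀, h ξ₀ hξ₀]⟩

/-- The idempotent of a block of `C_N(R')`, seen in the group algebra of `G`. -/
theorem emb_emb_jIso [M.IsPrime] {R' : Subgroup N}
    (f : Set (IrrCharacter (Subgroup.centralizer (R' : Set N)))) :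
    emb N (emb (Subgroup.centralizer (R' : Set N)) (idem M f)) =
      emb (Subgroup.centralizer ((R'.map N.subtype : Subgroup G) : Set G) ⊓ N)
        (idem M (blkMap (jIso R') f)) :=
  emb_emb_blkMap (jIso R') (fun _ => rfl) f

theorem mem_normalizer_map_subtype {R' : Subgroup N} {x : N}
    (hx : x ∈ Subgroup.normalizer (R' : Set N)) :
    (x : G) ∈ Subgroup.normalizer ((R'.map N.subtype : Subgroup G) : Set G) := by
  rw [mem_normalizer_iff_map_conj] at hx ⊢
  conv_rhs => rw [← hx]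
  rw [Subgroup.map_map, Subgroup.map_map]
  rfl

/-- **First direction of S4692**. -/
theorem isNilpotentBlock_of_cover [M.IsPrime] (hM : IsPModular p M)
    (hN : ∃ k : ℕ, N.index = p ^ k) (hc : IsPBlock M c)
    (hBc : ∀ g : G, blockCoeff B g = subgroupBlockCoeff N c g)
    (hnil : IsNilpotentBlock p M B) : IsNilpotentBlock p M c := by
  refine ⟨hc, fun R' f hRf x hxn hxs hreg => ?_⟩
  have hf := hRf.1.2
  have hB := hnil.1
  set C : Subgroup G := Subgroup.centralizer ((R'.map N.subtype : Subgroup G) : Set G) with hC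
  have hnor := normal_inf_subgroupOf N C
  have hidx := index_inf_subgroupOf (p := p) N C hN
  have hb : IsPBlock M (blkMap (jIso R') f) := isPBlock_blkMap hf
  obtain ⟨F, hF, hcov⟩ := exists_coversIn_above hM (inf_le_left : C ⊓ N ≤ C) hnor hb
  have hpair := (isBrauerPairOf_iff_of_coversIn hM hc hB hBc hRf.1.1 hf hF hcov).2 hRf
  have hxn' := mem_normalizer_map_subtype hxn
  have hxC : (x : G) ∈ Subgroup.normalizer (C : Set G) := mem_normalizer_centralizer hxn'
  have hreg' : IsPRegular p (x : G) := by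
    rw [IsPRegular, Subgroup.orderOf_coe]
    exact hreg
  have heps : cj (x : G) (emb (C ⊓ N) (idem M (blkMap (jIso R') f))) =
      emb (C ⊓ N) (idem M (blkMap (jIso R') f)) := by
    rw [← emb_emb_jIso, cj_emb_coe, ((Cfsg.Agent.H644.stabilizesBlock_iff hM hf x).1 hxs).2]
  have hst : StabilizesBlock C F (x : G) := by
    rw [Cfsg.Agent.H644.stabilizesBlock_iff hM hF]
    refine ⟨hxC, ?_⟩
    have h1 := Cfsg.Agent.H644.emb_idem_irrMap (M := M) (x : G) C C
      (Cfsg.Agent.H644.mem_iff_conj_mem_of_mem_normalizer hxC) F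
    have h2 : IsPBlock M (Cfsg.Agent.H644.irrMap (Cfsg.Agent.H644.cjE (x : G) C C
      (Cfsg.Agent.H644.mem_iff_conj_mem_of_mem_normalizer hxC)) '' F) :=
      Cfsg.Agent.H644.isPBlock_irrMap hF
    have h3 : CoversIn M (Cfsg.Agent.H644.irrMap (Cfsg.Agent.H644.cjE (x : G) C C
      (Cfsg.Agent.H644.mem_iff_conj_mem_of_mem_normalizer hxC)) '' F)
      (blkMap (jIso R') f) := by
      rw [CoversIn, h1, ← heps, ← map_mul]
      intro h0
      apply hcov
      have h4 := congrArg (cj (x : G)⁻¹) h0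
      rwa [Cfsg.Agent.H644.cj_inv_cj, map_zero] at h4
    have h4 := CoversIn.unique hM inf_le_left hnor hidx hb hF h2 hcov h3
    rw [← h1, ← h4]
  have h5 := hnil.2 _ F hpair (x : G) hxn' hst hreg'
  exact (mem_centralizer_map_subtype x).1 h5

/-- Invariance descends to a lower pair. -/
theorem conjIdx_eq_of_le (hM : IsPModular p M) {a b : BrauerPairIdx G}
    (hb : IsBrauerPair p M b.1 b.2) (h : LEIdx p M a b) {x : G} (hx : conjIdx x b = b)
    (h1 : (conjIdx x a).1 = a.1) : conjIdx x a = a := by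
  have h2 : LEIdx p M (conjIdx x a) (conjIdx x b) := (leIdx_conjIdx_iff x).2 h
  rw [hx] at h2
  generalize conjIdx x a = a' at h1 h2
  obtain ⟨R, g⟩ := a
  obtain ⟨R', g'⟩ := a'
  have h3 : R' = R := h1
  subst h3
  have := Fintype.ofFinite G
  have h4 : g' = g := subpair_unique hM hb h2 h
  rw [h4]

/-- Glauberman's argument: if `x` and `y` act in the same way on `ε`, `x` commutes with `y` up to
elements fixing `ε`, and the orders are coprime, then `x` fixes `ε`. -/
theorem cj_eq_of_coprime [M.IsPrime] {ε : MonoidAlgebra (ResField M) G} {x y : G}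
    (hxy : cj x ε = cj y ε) (hcom : ∀ n : ℕ, cj (x⁻¹ * (y ^ n)⁻¹ * x * y ^ n) ε = ε)
    {m : ℕ} (hy : cj (y ^ m) ε = ε) (hco : (orderOf x).Coprime m) : cj x ε = ε := by
  have h1 : ∀ n : ℕ, cj (x ^ n) ε = cj (y ^ n) ε := by
    intro n
    induction n with
    | zero => rw [pow_zero, pow_zero]
    | succ n ih =>
      have h2 : x * y ^ n = y ^ n * (x * (x⁻¹ * (y ^ n)⁻¹ * x * y ^ n)) := by group
      rw [pow_succ', Cfsg.Agent.H644.cj_mul_apply, ih, ← Cfsg.Agent.H644.cj_mul_apply, h2,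
        Cfsg.Agent.H644.cj_mul_apply, Cfsg.Agent.H644.cj_mul_apply, hcom, hxy,
        ← Cfsg.Agent.H644.cj_mul_apply, ← pow_succ]
  let S : Subgroup G :=
    { carrier := {g | cj g ε = ε}
      one_mem' := Cfsg.Agent.H644.cj_one_apply ε
      mul_mem' := fun {a b} ha hb => by
        have ha' : cj a ε = ε := ha
        have hb' : cj b ε = ε := hb
        change cj (a * b) ε = ε
        rw [Cfsg.Agent.H644.cj_mul_apply, hb', ha']
      inv_mem' := fun {a} ha => by
        have ha' : cj a ε = ε := ha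
        change cj a⁻¹ ε = ε
        conv_lhs => rw [← ha']
        rw [Cfsg.Agent.H644.cj_inv_cj] }
  have h2 : y ^ orderOf x ∈ S := by
    change cj (y ^ orderOf x) ε = ε
    rw [← h1, pow_orderOf_eq_one, Cfsg.Agent.H644.cj_one_apply]
  have h3 : y ^ m ∈ S := hy
  have h4 : y ∈ S := by
    have h5 : (1 : ℤ) = (orderOf x : ℤ) * Nat.gcdA (orderOf x) m + m * Nat.gcdB (orderOf x) m := by
      rw [← Nat.gcd_eq_gcd_ab, hco.gcd_eq_one]
      rfl
    have h6 : y = (y ^ orderOf x) ^ Nat.gcdA (orderOf x) m * (y ^ m) ^ Nat.gcdB (orderOf x) m := by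
      rw [← zpow_natCast, ← zpow_natCast, ← zpow_mul, ← zpow_mul, ← zpow_add, ← h5, zpow_one]
    rw [h6]
    exact mul_mem (zpow_mem h2 _) (zpow_mem h3 _)
  rw [hxy]
  exact h4

/-- A `p`-regular element of `N` normalizing the `p`-group `Q` and centralizing `Q ∩ N`
centralizes `Q`. -/
theorem mem_centralizer_of_inf {Q : Subgroup G} (hQ : IsPGroup p Q) {x : G} (hxN : x ∈ N)
    (hxQ : x ∈ Subgroup.normalizer (Q : Set G)) (hreg : IsPRegular p x)
    (hcen : ∀ r ∈ Q ⊓ N, r * x = x * r) : x ∈ Subgroup.centralizer (Q : Set G) := by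
  rw [Subgroup.mem_centralizer_iff]
  intro q hq
  -- `x⁻¹ q x = q d`
  have hd : q⁻¹ * (x⁻¹ * q * x) ∈ Q ⊓ N := by
    refine Subgroup.mem_inf.2 ⟨?_, ?_⟩
    · refine mul_mem (inv_mem hq) ?_
      have h1 := (Subgroup.mem_normalizer_iff.1 (inv_mem hxQ) q).1 hq
      rwa [inv_inv] at h1
    · have h1 : q⁻¹ * (x⁻¹ * q * x) = (q⁻¹ * x⁻¹ * q) * x := by group
      rw [h1]
      refine mul_mem ?_ hxN
      have h2 := ‹N.Normal›.conj_mem _ (inv_mem hxN) q⁻¹
      rwa [inv_inv] at h2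
  have hdx := hcen _ hd
  set d := q⁻¹ * (x⁻¹ * q * x) with hddef
  have h1 : ∀ n : ℕ, (x ^ n)⁻¹ * q * x ^ n = q * d ^ n := by
    intro n
    induction n with
    | zero => simp
    | succ n ih =>
      have h2 : x⁻¹ * q * x = q * d := by rw [hddef]; group
      have h3 : x⁻¹ * d ^ n * x = d ^ n := by
        have h4 : Commute (d ^ n) x := Commute.pow_left hdx n
        rw [mul_assoc, h4.eq]; group
      calc (x ^ (n + 1))⁻¹ * q * x ^ (n + 1) = x⁻¹ * ((x ^ n)⁻¹ * q * x ^ n) * x := by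
            rw [pow_succ]; group
        _ = (x⁻¹ * q * x) * (x⁻¹ * d ^ n * x) := by rw [ih]; group
        _ = q * d ^ (n + 1) := by rw [h2, h3, pow_succ']; group
  have h2 : d ^ orderOf x = 1 := by
    have h3 := h1 (orderOf x)
    rw [pow_orderOf_eq_one, inv_one, one_mul, mul_one] at h3
    exact (mul_eq_left.1 h3.symm)
  obtain ⟨k, hk⟩ := hQ ⟨d, hd.1⟩
  have hk' : d ^ p ^ k = 1 := congrArg Subtype.val hk
  have h3 : (orderOf x).Coprime (p ^ k) :=
    Nat.Coprime.pow_right k ((Nat.Prime.coprime_iff_not_dvd Fact.out).2 hreg).symm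
  have h4 : d = 1 := by
    rw [← orderOf_eq_one_iff]
    exact Nat.eq_one_of_dvd_coprimes h3 (orderOf_dvd_of_pow_eq_one h2)
      (orderOf_dvd_of_pow_eq_one hk')
  have h5 : x⁻¹ * q * x = q := by
    have h6 := h1 1
    rw [pow_one, pow_one, h4, mul_one] at h6
    exact h6
  calc q * x = x * (x⁻¹ * q * x) := by group
    _ = x * q := by rw [h5]

/-- **Second direction of S4692**. -/
theorem isNilpotentBlock_of_covered [M.IsPrime] (hM : IsPModular p M)
    (hN : ∃ k : ℕ, N.index = p ^ k) (hB : IsPBlock M B)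
    (hBc : ∀ g : G, blockCoeff B g = subgroupBlockCoeff N c g)
    (hnil : IsNilpotentBlock p M c) : IsNilpotentBlock p M B := by
  refine ⟨hB, fun Q FQ hQF x hxQ hxs hreg => ?_⟩
  have hc := hnil.1
  have hxN : x ∈ N := mem_of_isPRegular N hN hreg
  have hQp := hQF.1.1
  set R' : Subgroup N := Q.subgroupOf N with hR'
  have hmap : R'.map N.subtype = Q ⊓ N := Subgroup.subgroupOf_map_subtype Q N
  have hRQ : R'.map N.subtype ≤ Q := by rw [hmap]; exact inf_le_left
  have hR'p : IsPGroup p R' := hQp.comap_of_injective N.subtype (Subgroup.subtype_injective N)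
  have hfixQ : conjIdx x ⟨Q, FQ⟩ = ⟨Q, FQ⟩ := (conjIdx_eq_iff hQF.1.2 x).2 ⟨hxQ, hxs⟩
  obtain ⟨FR, hFR, -⟩ := Cfsg.Agent.H644.existsUnique_subpairLE hM hQF.1 hRQ
  have hFRp := SubpairLE.isBrauerPair hFR hQF.1
  have hFRB : IsBrauerPairOf p M B (R'.map N.subtype) FR :=
    (Cfsg.Agent.H644.isBrauerPairOf_iff_of_subpairLE hM hFR).1 hQF
  have hmapx : (R'.map N.subtype).map (MulAut.conj x).toMonoidHom = R'.map N.subtype := by
    have h1 := (mem_normalizer_iff_map_conj Q x).1 hxQ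
    have h2 : x ∈ Subgroup.normalizer (N : Set G) := by
      rw [Subgroup.normalizer_eq_top]; trivial
    have h3 := (mem_normalizer_iff_map_conj N x).1 h2
    rw [hmap, Subgroup.map_inf _ _ _ (MulAut.conj x).injective, h1, h3]
  have hfixR : conjIdx x ⟨R'.map N.subtype, FR⟩ = ⟨R'.map N.subtype, FR⟩ :=
    conjIdx_eq_of_le hM (b := ⟨Q, FQ⟩) hQF.1 hFR hfixQ hmapx
  obtain ⟨hxR, hxsR⟩ := (conjIdx_eq_iff hFRp.2 x).1 hfixR
  have hxC : x ∈ Subgroup.normalizer ((Subgroup.centralizer ((R'.map N.subtype : Subgroup G) : Set G)) : Set G) := mem_normalizer_centralizer hxR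
  have hnor := normal_inf_subgroupOf N (Subgroup.centralizer ((R'.map N.subtype : Subgroup G) : Set G))
  -- a covered block
  obtain ⟨b, hb, hcov⟩ := exists_coversIn_below hM (inf_le_left : (Subgroup.centralizer ((R'.map N.subtype : Subgroup G) : Set G)) ⊓ N ≤ (Subgroup.centralizer ((R'.map N.subtype : Subgroup G) : Set G))) hnor hFRp.2
  have hf : IsPBlock M (blkMap (jIso R').symm b) := isPBlock_blkMap hb
  have hjf : blkMap (jIso R') (blkMap (jIso R').symm b) = b := blkMap_blkMap_symm _ b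
  have hpair : IsBrauerPairOf p M c R' (blkMap (jIso R').symm b) :=
    (isBrauerPairOf_iff_of_coversIn hM hc hB hBc hR'p hf hFRp.2 (by rw [hjf]; exact hcov)).1 hFRB
  -- the conjugate of `b` by `x`
  have hxL : x ∈ Subgroup.normalizer (((Subgroup.centralizer ((R'.map N.subtype : Subgroup G) : Set G)) ⊓ N : Subgroup G) : Set G) := by
    rw [mem_normalizer_iff_map_conj, Subgroup.map_inf _ _ _ (MulAut.conj x).injective,
      (mem_normalizer_iff_map_conj (Subgroup.centralizer ((R'.map N.subtype : Subgroup G) : Set G)) x).1 hxC, (mem_normalizer_iff_map_conj N x).1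
        (by rw [Subgroup.normalizer_eq_top]; trivial)]
  have h1 := Cfsg.Agent.H644.emb_idem_irrMap (M := M) x ((Subgroup.centralizer ((R'.map N.subtype : Subgroup G) : Set G)) ⊓ N) ((Subgroup.centralizer ((R'.map N.subtype : Subgroup G) : Set G)) ⊓ N)
    (Cfsg.Agent.H644.mem_iff_conj_mem_of_mem_normalizer hxL) b
  have h2 : IsPBlock M (Cfsg.Agent.H644.irrMap (Cfsg.Agent.H644.cjE x ((Subgroup.centralizer ((R'.map N.subtype : Subgroup G) : Set G)) ⊓ N) ((Subgroup.centralizer ((R'.map N.subtype : Subgroup G) : Set G)) ⊓ N)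
    (Cfsg.Agent.H644.mem_iff_conj_mem_of_mem_normalizer hxL)) '' b) :=
    Cfsg.Agent.H644.isPBlock_irrMap hb
  have h3 : CoversIn M FR (Cfsg.Agent.H644.irrMap (Cfsg.Agent.H644.cjE x ((Subgroup.centralizer ((R'.map N.subtype : Subgroup G) : Set G)) ⊓ N) ((Subgroup.centralizer ((R'.map N.subtype : Subgroup G) : Set G)) ⊓ N)
    (Cfsg.Agent.H644.mem_iff_conj_mem_of_mem_normalizer hxL)) '' b) := by
    rw [CoversIn, h1, ← ((Cfsg.Agent.H644.stabilizesBlock_iff hM hFRp.2 x).1 hxsR).2, ← map_mul]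
    intro h0
    apply hcov
    have h4 := congrArg (cj x⁻¹) h0
    rwa [Cfsg.Agent.H644.cj_inv_cj, map_zero] at h4
  obtain ⟨y, hyC, hy⟩ := CoversIn.exists_cj hM inf_le_left hnor hFRp.2 hb h2 hcov h3
  rw [h1] at hy
  have hinv : ∀ g ∈ (Subgroup.centralizer ((R'.map N.subtype : Subgroup G) : Set G)) ⊓ N, cj g (emb ((Subgroup.centralizer ((R'.map N.subtype : Subgroup G) : Set G)) ⊓ N) (idem M b)) = emb ((Subgroup.centralizer ((R'.map N.subtype : Subgroup G) : Set G)) ⊓ N) (idem M b) :=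
    Cfsg.Agent.H644.isInv_iff_cj.1 (isInv_emb (isCls_idem b))
  obtain ⟨k, hk⟩ := hN
  have hfix : cj x (emb ((Subgroup.centralizer ((R'.map N.subtype : Subgroup G) : Set G)) ⊓ N) (idem M b)) = emb ((Subgroup.centralizer ((R'.map N.subtype : Subgroup G) : Set G)) ⊓ N) (idem M b) := by
    refine cj_eq_of_coprime hy (fun n => hinv _ ?_) (m := p ^ k) (hinv _ ?_)
      (Nat.Coprime.pow_right k ((Nat.Prime.coprime_iff_not_dvd Fact.out).2 hreg).symm)
    · refine Subgroup.mem_inf.2 ⟨?_, ?_⟩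
      · refine mul_mem ?_ (pow_mem hyC n)
        have h4 := (Subgroup.mem_normalizer_iff.1 (inv_mem hxC) (y ^ n)⁻¹).1
          (inv_mem (pow_mem hyC n))
        rwa [inv_inv] at h4
      · have h4 : x⁻¹ * (y ^ n)⁻¹ * x * y ^ n = x⁻¹ * ((y ^ n)⁻¹ * x * (y ^ n)⁻¹⁻¹) := by group
        rw [h4]
        exact mul_mem (inv_mem hxN) (‹N.Normal›.conj_mem _ hxN _)
    · refine Subgroup.mem_inf.2 ⟨pow_mem hyC _, ?_⟩
      rw [← hk]
      exact Subgroup.pow_index_mem N y
  -- `x` fixes the block of `C_N(R')`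
  have hxn : (⟨x, hxN⟩ : N) ∈ Subgroup.normalizer (R' : Set N) := by
    rw [Subgroup.mem_normalizer_iff]
    intro r
    rw [hR', Subgroup.mem_subgroupOf, Subgroup.mem_subgroupOf]
    exact Subgroup.mem_normalizer_iff.1 hxQ r
  have hst : StabilizesBlock (Subgroup.centralizer (R' : Set N))
      (blkMap (jIso R').symm b) (⟨x, hxN⟩ : N) := by
    rw [Cfsg.Agent.H644.stabilizesBlock_iff hM hf]
    refine ⟨mem_normalizer_centralizer hxn, ?_⟩
    apply emb_injective N
    rw [← cj_emb_coe, emb_emb_jIso, hjf]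
    exact hfix
  have hreg' : IsPRegular p (⟨x, hxN⟩ : N) := by
    rw [IsPRegular, ← Subgroup.orderOf_coe]
    exact hreg
  have h4 := hnil.2 R' _ hpair ⟨x, hxN⟩ hxn hst hreg'
  refine mem_centralizer_of_inf hQp hxN hxQ hreg fun r hr => ?_
  have h5 := Subgroup.mem_centralizer_iff.1 h4 ⟨r, hr.2⟩ (by
    rw [SetLike.mem_coe, hR', Subgroup.mem_subgroupOf]
    exact hr.1)
  exact congrArg Subtype.val h5

end Pairs

end Cfsg.Agent.H649
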