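import Cfsg.Agent.H649.StabBlock
import Cfsg.Agent.H648.Dict
import Cfsg.Agent.H646.UCov
import Cfsg.Agent.Blocks.Over
import Cfsg.Agent.S0964

/-!
# Covering of blocks for subgroups `L ≤ C` of a group `G`, `L` normal in `C`

Everything is expressed by idempotents of the group algebra of `G` over the residue field:
`F` covers `b` iff `emb C (idem F) * emb L (idem b) ≠ 0` (`CoversIn`).

* `emb_emb_blkMap`: idempotents and isomorphisms `A' ≃* L`, `A' ≤ A ≤ G`;
* `CoversIn.lam_eq`: central characters (Passman);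
* `exists_coversIn`, `exists_coversIn'`: existence of blocks above and below;
* `CoversIn.unique`: uniqueness of the block above when the index is a power of `p`;
* `CoversIn.exists_cj`: the blocks below are conjugate.
-/

set_option autoImplicit false
set_option linter.unusedSectionVars false

open Cfsg

namespace Cfsg.Agent.H649

open Cfsg.Agent.Blocks.Local
open Cfsg.Agent.H644 (idem lam emb res br IsCls IsInv coeff_emb_of_mem coeff_emb_of_notMem coeff_idem
  ext_coeff emb_injective isCls_idem isInv_emb isUnion_of_isPBlock lam_eq_of_mem coeff_res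
  coeff_br cj cj_of_isCls coeff_cj)
open Cfsg.Agent.Blocks.Basic (isPBlock_nonempty isPBlock_blockOf isPBlock_eq_of_mem)
open Cfsg.Agent.H648.Dict (Covers covers_iff_lam covers_iff_idem)

universe u

variable {p : ℕ} [Fact p.Prime] {M : Ideal AlgInt} [M.IsPrime] {G : Type u} [Group G] [Finite G]

/-- Idempotents of blocks under an isomorphism of a subgroup `A'` of the subgroup `A` with `L`. -/
theorem emb_emb_blkMap {A : Subgroup G} {A' : Subgroup A} {L : Subgroup G} (j : A' ≃* L)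
    (hj : ∀ a : A', ((j a : L) : G) = ((a : A) : G)) (b : Set (IrrCharacter A')) :
    emb A (emb A' (idem M b)) = emb L (idem M (blkMap j b)) := by
  refine ext_coeff fun g => ?_
  by_cases hg : g ∈ L
  · obtain ⟨a, ha⟩ := j.surjective ⟨g, hg⟩
    have hga : g = ((a : A) : G) := by rw [← hj a, ha]
    subst hga
    rw [coeff_emb_of_mem _ (a : A).2, coeff_emb_of_mem _ hg,
      coeff_emb_of_mem _ (show (⟨((a : A) : G), (a : A).2⟩ : A) ∈ A' from a.2), coeff_idem,
      coeff_idem, ← ha, blockCoeff_blkMap]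
  · rw [coeff_emb_of_notMem _ hg]
    by_cases hgA : g ∈ A
    · rw [coeff_emb_of_mem _ hgA]
      refine coeff_emb_of_notMem _ fun h => hg ?_
      have h1 := (j ⟨⟨g, hgA⟩, h⟩).2
      rwa [hj] at h1
    · rw [coeff_emb_of_notMem _ hgA]

/-- The blocks of `L`, as blocks of `L.subgroupOf C`. -/
theorem emb_emb_sub {L C : Subgroup G} (hLC : L ≤ C) (b : Set (IrrCharacter L)) :
    emb C (emb (L.subgroupOf C) (idem M (blkMap (Subgroup.subgroupOfEquivOfLe hLC).symm b))) =
      emb L (idem M b) := by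
  rw [emb_emb_blkMap (Subgroup.subgroupOfEquivOfLe hLC) (fun _ => rfl), blkMap_blkMap_symm]

/-- `F` covers `b`. -/
def CoversIn (M : Ideal AlgInt) [M.IsPrime] {C L : Subgroup G} (F : Set (IrrCharacter C))
    (b : Set (IrrCharacter L)) : Prop :=
  emb C (idem M F) * emb L (idem M b) ≠ 0

section

variable {L C : Subgroup G} {F : Set (IrrCharacter C)} {b : Set (IrrCharacter L)}

theorem coversIn_iff (hM : IsPModular p M) (hLC : L ≤ C) (hn : (L.subgroupOf C).Normal)
    [Fintype (L.subgroupOf C)] (hF : IsPBlock M F) (hb : IsPBlock M b) :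
    CoversIn M F b ↔ Covers (L.subgroupOf C) F
      (blkMap (Subgroup.subgroupOfEquivOfLe hLC).symm b) := by
  rw [covers_iff_idem _ hM hF (isPBlock_blkMap hb), CoversIn, ← emb_emb_sub hLC b, ← map_mul,
    Ne, Ne, map_eq_zero_iff _ (emb_injective C)]

/-- Central characters of covered blocks. -/
theorem CoversIn.lam_eq (hM : IsPModular p M) (hLC : L ≤ C) (hn : (L.subgroupOf C).Normal)
    (hF : IsPBlock M F) (hb : IsPBlock M b) (h : CoversIn M F b) {χ : IrrCharacter C}
    (hχ : χ ∈ F) {θ : IrrCharacter L} (hθ : θ ∈ b) {x : MonoidAlgebra (ResField M) C}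
    (hx : IsCls x) (hsupp : ∀ g : C, (g : G) ∉ L → x.coeff g = 0) :
    lam M (χ : C → ℂ) x = lam M (θ : L → ℂ) (res L (emb C x)) := by
  have := Fintype.ofFinite (L.subgroupOf C)
  rw [coversIn_iff hM hLC hn hF hb,
    covers_iff_lam _ hM hF (isPBlock_blkMap hb)] at h
  have h1 := h χ hχ (irrMap (Subgroup.subgroupOfEquivOfLe hLC).symm θ)
    (irrMap_mem_blkMap.2 hθ) x hx (fun g hg => hsupp g hg)
  rw [h1]
  have h2 : IsCls (res (L.subgroupOf C) x) :=
    Cfsg.Agent.H644.isCls_res (Cfsg.Agent.H644.isInv_of_isCls hx _)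
  have h3 := Cfsg.Agent.H644.lam_irrMap (M := M) (Subgroup.subgroupOfEquivOfLe hLC)
    (irrMap (Subgroup.subgroupOfEquivOfLe hLC).symm θ) h2
    (x' := res L (emb C x)) (fun g => by
      rw [coeff_res, coeff_res, coeff_emb_of_mem _ (hLC (Subtype.prop _))]
      rfl)
  rw [← h3]
  congr 1

/-- Existence of covered blocks. -/
theorem exists_coversIn_below (hM : IsPModular p M) (hLC : L ≤ C)
    (hn : (L.subgroupOf C).Normal) (hF : IsPBlock M F) :
    ∃ b : Set (IrrCharacter L), IsPBlock M b ∧ CoversIn M F b := by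
  have := Fintype.ofFinite (L.subgroupOf C)
  obtain ⟨χ, hχ⟩ := isPBlock_nonempty hF
  obtain ⟨θ, hθ⟩ := Cfsg.Agent.Blocks.Fong.exists_constituent (L.subgroupOf C) χ
  have h1 : IsPBlock M (blockOf M (θ : _ → ℂ)) := ⟨θ, rfl⟩
  have h2 : IsPBlock M (blkMap (Subgroup.subgroupOfEquivOfLe hLC) (blockOf M (θ : _ → ℂ))) :=
    isPBlock_blkMap h1
  refine ⟨_, h2, (coversIn_iff hM hLC hn hF h2).2 ?_⟩
  rw [blkMap_symm_blkMap]
  exact ⟨χ, hχ, θ, Cfsg.Agent.Blocks.Basic.mem_blockOf_self θ, hθ⟩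

/-- Existence of covering blocks. -/
theorem exists_coversIn_above (hM : IsPModular p M) (hLC : L ≤ C)
    (hn : (L.subgroupOf C).Normal) (hb : IsPBlock M b) :
    ∃ F : Set (IrrCharacter C), IsPBlock M F ∧ CoversIn M F b := by
  have := Fintype.ofFinite (L.subgroupOf C)
  obtain ⟨θ, hθ⟩ := isPBlock_nonempty hb
  obtain ⟨χ, hχ⟩ := Cfsg.Agent.Blocks.Over.exists_over (L.subgroupOf C)
    (irrMap (Subgroup.subgroupOfEquivOfLe hLC).symm θ)
  have h1 : IsPBlock M (blockOf M (χ : C → ℂ)) := ⟨χ, rfl⟩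
  refine ⟨_, h1, (coversIn_iff hM hLC hn h1 hb).2 ?_⟩
  exact ⟨χ, Cfsg.Agent.Blocks.Basic.mem_blockOf_self χ, _, irrMap_mem_blkMap.2 hθ, hχ⟩

/-- Uniqueness of the covering block, when the index is a power of `p`. -/
theorem CoversIn.unique (hM : IsPModular p M) (hLC : L ≤ C)
    (hn : (L.subgroupOf C).Normal) (hidx : ∃ k : ℕ, (L.subgroupOf C).index = p ^ k)
    (hb : IsPBlock M b) {F' : Set (IrrCharacter C)} (hF : IsPBlock M F) (hF' : IsPBlock M F')
    (h : CoversIn M F b) (h' : CoversIn M F' b) : F = F' := by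
  have := Fintype.ofFinite (L.subgroupOf C)
  have := Fintype.ofFinite C
  rw [coversIn_iff hM hLC hn hF hb] at h
  rw [coversIn_iff hM hLC hn hF' hb] at h'
  obtain ⟨χ, hχ, θ, hθ, h1⟩ := h
  obtain ⟨χ', hχ', θ', hθ', h1'⟩ := h'
  have hU := Cfsg.Agent.H646.UCov.ucov_of_index hM (L.subgroupOf C) hidx
  have h2 := hU θ θ' (Cfsg.Agent.Blocks.Basic.isPBlock_sameBlock (isPBlock_blkMap hb) hθ hθ')
    χ χ' h1 h1'
  exact isPBlock_eq_of_mem hF hF'
    (Cfsg.Agent.Blocks.Basic.isPBlock_mem_of_sameBlock hF hχ h2) hχ'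

theorem cj_emb_coe (y : C) (z : MonoidAlgebra (ResField M) C) :
    cj (y : G) (emb C z) = emb C (cj y z) := by
  refine ext_coeff fun g => ?_
  rw [coeff_cj]
  by_cases hg : g ∈ C
  · rw [coeff_emb_of_mem _ hg, coeff_emb_of_mem _
      (mul_mem (mul_mem (inv_mem y.2) hg) y.2), coeff_cj]
    rfl
  · rw [coeff_emb_of_notMem _ hg, coeff_emb_of_notMem]
    intro h
    apply hg
    have h1 := mul_mem (mul_mem y.2 h) (inv_mem y.2)
    have h2 : (y : G) * ((y : G)⁻¹ * g * y) * (y : G)⁻¹ = g := by group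
    rwa [h2] at h1

/-- The covered blocks are conjugate. -/
theorem CoversIn.exists_cj (hM : IsPModular p M) (hLC : L ≤ C)
    (hn : (L.subgroupOf C).Normal) (hF : IsPBlock M F) (hb : IsPBlock M b)
    {b' : Set (IrrCharacter L)} (hb' : IsPBlock M b')
    (h : CoversIn M F b) (h' : CoversIn M F b') :
    ∃ y ∈ C, emb L (idem M b') = cj y (emb L (idem M b)) := by
  have := Fintype.ofFinite (L.subgroupOf C)
  have := Fintype.ofFinite C
  rw [coversIn_iff hM hLC hn hF hb] at h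
  rw [coversIn_iff hM hLC hn hF hb'] at h'
  obtain ⟨χ, hχ, θ, hθ, h1⟩ := h
  obtain ⟨χ', hχ', ψ, hψ, h1'⟩ := h'
  obtain ⟨g, θ', hθ', h2⟩ := Cfsg.Agent.S0964.result p M hM (L.subgroupOf C) F hF _
    (isPBlock_blkMap hb) χ hχ θ hθ h1 χ' hχ' ψ h1'
  have h3 : ψ ∈ Cfsg.Agent.H648.Dict.conjN (L.subgroupOf C) g⁻¹
      (blkMap (Subgroup.subgroupOfEquivOfLe hLC).symm b) := by
    refine ⟨θ', hθ', ?_⟩
    apply Subtype.ext
    funext n
    rw [Cfsg.Agent.H648.Dict.irrMap_cjE_apply, h2 n]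
    refine congrArg (θ' : L.subgroupOf C → ℂ) (Subtype.ext ?_)
    simp only [inv_inv]
  have h4 := isPBlock_eq_of_mem (isPBlock_blkMap hb')
    (Cfsg.Agent.H648.Dict.isPBlock_conjN (L.subgroupOf C) g⁻¹ (isPBlock_blkMap hb)) hψ h3
  refine ⟨(g⁻¹ : C), (g⁻¹).2, ?_⟩
  rw [← emb_emb_sub hLC b', h4, Cfsg.Agent.H648.Dict.emb_idem_conjN, ← cj_emb_coe,
    emb_emb_sub hLC b]

end

end Cfsg.Agent.H649
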